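import Cfsg.Agent.Lib.SmallSimple.Basic
import Cfsg.Agent.S0985

/-!
Two Sylow p-subgroups of order p^2 meeting in order p give a proper subgroup with several Sylows.
-/

set_option autoImplicit false

namespace Cfsg.Agent.Lib.SmallSimple

variable {G : Type*} [Group G] [Finite G] [IsSimpleGroup G] {p : ℕ} [Fact p.Prime]

/-- If `|P| = p^2`, `|G| = p^2 m` and `n_p ≢ 1 (mod p^2)` then some proper subgroup `H` has order
`p^2 h` with `h ∣ m` and `p + 1 ≤ h`; hence `2|G| ∣ (m/h)!`. -/
theorem exists_large_subgroup (hG : ¬ IsMulCommutative G) {m : ℕ} (hc : Nat.card G = p ^ 2 * m)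
    (hm : ¬ p ∣ m) (h : ¬ Nat.card (Sylow p G) ≡ 1 [MOD p ^ 2]) :
    ∃ e : ℕ, p + 1 ≤ e ∧ e ∣ m ∧ 2 * Nat.card G ∣ (m / e).factorial := by
  have hp : p.Prime := Fact.out
  obtain ⟨P, R, hne, hidx⟩ := Cfsg.Agent.S0985.result p 2 h
  have hP : Nat.card (P : Subgroup G) = p ^ 2 := card_sylow_subgroup P hc hm
  have hR : Nat.card (R : Subgroup G) = p ^ 2 := card_sylow_subgroup R hc hm
  have hPc := isMulCommutative_of_card_prime_sq (p := p) (P : Subgroup G) hP
  have hRc := isMulCommutative_of_card_prime_sq (p := p) (R : Subgroup G) hR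
  set D : Subgroup G := (R : Subgroup G) ⊓ (P : Subgroup G) with hD
  set C : Subgroup G := Subgroup.centralizer (D : Set G) with hC
  have hPC : (P : Subgroup G) ≤ C := fun x hx => Subgroup.mem_centralizer_iff.2 fun y hy =>
    congrArg Subtype.val (hPc.is_comm.comm ⟨y, hy.2⟩ ⟨x, hx⟩)
  have hRC : (R : Subgroup G) ≤ C := fun x hx => Subgroup.mem_centralizer_iff.2 fun y hy =>
    congrArg Subtype.val (hRc.is_comm.comm ⟨y, hy.1⟩ ⟨x, hx⟩)
  have hD1 : D ≠ ⊥ := by
    intro h0
    have h1 := Subgroup.card_mul_index ((R : Subgroup G).subgroupOf (P : Subgroup G))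
    have h2 : (R : Subgroup G).subgroupOf (P : Subgroup G) = ⊥ := by
      rw [← Subgroup.inf_subgroupOf_right, ← hD, h0, Subgroup.bot_subgroupOf]
    rw [h2, Subgroup.card_bot, one_mul, hP] at h1
    rw [h2, h1] at hidx
    exact absurd hidx (not_le.2 (Nat.pow_lt_pow_right hp.one_lt (by norm_num)))
  have hCtop : C ≠ ⊤ := by
    intro h0
    rw [hC, Subgroup.centralizer_eq_top_iff_subset] at h0
    rcases (inferInstance : (Subgroup.center G).Normal).eq_bot_or_eq_top with h' | h'
    · exact hD1 (eq_bot_iff.2 (fun x hx => h' ▸ h0 hx))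
    · exact hG (Subgroup.center_eq_top_iff.1 h')
  have hd : p ^ 2 ∣ Nat.card C := hP ▸ Subgroup.card_dvd_of_le hPC
  obtain ⟨e, he⟩ := hd
  have hem : e ∣ m := by
    have := C.card_subgroup_dvd_card
    rw [he, hc] at this
    exact Nat.dvd_of_mul_dvd_mul_left (pow_pos hp.pos 2) this
  have hpe : ¬ p ∣ e := fun hpe => hm (hpe.trans hem)
  refine ⟨e, ?_, hem, ?_⟩
  · have hmod := card_sylow_modEq_one p C
    have hne' : Nat.card (Sylow p C) ≠ 1 := by
      intro h1
      have : Subsingleton (Sylow p C) := (Nat.card_eq_one_iff_unique.1 h1).1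
      have := congrArg (fun S : Sylow p C => (S : Subgroup C).map C.subtype)
        (Subsingleton.elim (P.subtype hPC) (R.subtype hRC))
      simp only [Sylow.coe_subtype, Subgroup.subgroupOf_map_subtype, inf_eq_left.2 hPC,
        inf_eq_left.2 hRC] at this
      exact hne (Sylow.ext this)
    have hS : Nat.card ((P.subtype hPC : Sylow p C) : Subgroup C) = p ^ 2 :=
      card_sylow_subgroup _ he hpe
    have hdvd : Nat.card (Sylow p C) ∣ e := by
      have hi := ((P.subtype hPC : Sylow p C) : Subgroup C).card_mul_index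
      rw [hS, he] at hi
      exact (Nat.eq_of_mul_eq_mul_left (pow_pos hp.pos 2) hi) ▸ (P.subtype hPC).card_dvd_index
    have he0 : 0 < e := Nat.pos_of_ne_zero fun h0 => hpe (h0 ▸ dvd_zero p)
    have hle := Nat.le_of_dvd he0 hdvd
    have hge : p + 1 ≤ Nat.card (Sylow p C) := by
      rw [Nat.ModEq, Nat.one_mod_eq_one.2 hp.ne_one] at hmod
      by_contra hlt
      rcases (Nat.lt_succ_iff.1 (not_le.1 hlt)).lt_or_eq with h' | h'
      · rw [Nat.mod_eq_of_lt h'] at hmod; exact hne' hmod
      · rw [h', Nat.mod_self] at hmod; omega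
    omega
  · have hi := C.card_mul_index
    rw [he, hc] at hi
    have he0 : 0 < e := Nat.pos_of_ne_zero fun h0 => hpe (h0 ▸ dvd_zero p)
    have : C.index = m / e := by
      refine (Nat.div_eq_of_eq_mul_left he0 ?_).symm
      exact Nat.eq_of_mul_eq_mul_left (pow_pos hp.pos 2) (by linarith)
    exact this ▸ two_mul_card_dvd_factorial hG C hCtop

end Cfsg.Agent.Lib.SmallSimple
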