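import Mathlib

set_option autoImplicit false

namespace Cfsg.Agent.Lib.SmallSimple.Order175560

/-- All products of two lists. -/
def mulL (l₁ l₂ : List ℕ) : List ℕ := l₁.flatMap fun a => l₂.map fun b => a * b

/-- The divisors of `175560`. -/
def dl : List ℕ := mulL [1, 2, 4, 8] (mulL [1, 3] (mulL [1, 5] (mulL [1, 7] (mulL [1, 11] [1, 19]))))

/-- Numerical data attached to a prime: number of Sylow subgroups and order of the centralizer. -/
structure Ent where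
  p : ℕ
  n : ℕ
  C : ℕ

def Ent.N (e : Ent) (d : ℕ) : ℕ := d / e.n

def optOK (d : ℕ) (e : Ent) : Bool :=
  decide ((e.N d / e.C) ∣ e.p - 1 ∧ e.N d ≠ e.C ∧
    (e.p = 19 → 2 ∣ e.C → 4 ∣ e.N d ∧ (8 ∣ d → 8 ∣ e.N d)))

def opts (d p : ℕ) : List Ent :=
  (dl.filter fun n => decide (n % p = 1 ∧ n ≠ 1 ∧ n ∣ d)).flatMap fun n =>
    (((dl.filter fun c => decide (c ∣ d / n ∧ p ∣ c)).map fun c => (⟨p, n, c⟩ : Ent)).filter (optOK d))

def pairOK (d : ℕ) (e f : Ent) : Bool :=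
  decide ((f.p ∣ e.C ↔ e.p ∣ f.C) ∧
    (f.p = 19 → 2 ∣ f.C → (8 ∣ d → 4 ∣ f.C) → 2 ∣ e.C → e.p ∣ f.N d)) &&
  (!decide (f.p ∣ e.C) || dl.any fun k => decide (k ∣ e.C ∧ k % f.p = 1 ∧ (e.n * k) % f.n = 0 ∧
    (e.n * k / f.n) ∣ f.C ∧ (e.n * k / f.n) % e.p = 1))

def add (e : Ent) : List Ent → ℕ
  | [] => e.n * (e.p - 1)
  | f :: acc => add e acc + if f.p ∣ e.C then e.n * (e.p - 1) * (f.p - 1) else 0

def kill (d : ℕ) : List ℕ → List Ent → ℕ → Bool
  | [], _, tot => decide (d ≤ tot)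
  | p :: ps, acc, tot => (opts d p).all fun e => !(acc.all (pairOK d e)) || kill d ps (e :: acc) (tot + add e acc)

def plist (d : ℕ) : List ℕ := [19, 11, 7, 5, 3].filter fun p => decide (p ∣ d)

theorem check : ∀ d ∈ dl, 19 ∣ d → 4 ∣ d → 6859 ≤ d → d ≠ 175560 → kill d (plist d) [] 0 = true := by
  decide +kernel

end Cfsg.Agent.Lib.SmallSimple.Order175560
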