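import Cfsg.Agent.Lib.SmallSimple.Table168
import Mathlib.GroupTheory.SpecificGroups.Dihedral

/-!
Sylow subgroups of the simple group of order 168, read off from the table.
-/

set_option autoImplicit false

namespace Cfsg.Agent.Lib.SmallSimple

/-- A set of entries closed under multiplication. -/
def IsTblSub (S : Finset Ix168) : Prop :=
  (.inl (0, 0)) ∈ S ∧ ∀ i ∈ S, ∀ j ∈ S, ∃ k ∈ S, el168 i * el168 j = el168 k

set_option synthInstance.maxSize 1024 in
instance (S : Finset Ix168) : Decidable (IsTblSub S) := by unfold IsTblSub; infer_instance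

/-- The entries normalising it. -/
def tblNorm (S : Finset Ix168) : Finset Ix168 :=
  Finset.univ.filter fun k => ∀ i ∈ S, ∃ j ∈ S, el168 k * el168 i = el168 j * el168 k

variable {G : Type*} [Group G] [Finite G] {φ : G →* Equiv.Perm Line7} {E : Ix168 ≃ G}
  (hφ : Function.Injective φ) (hE : ∀ i, φ (E i) = el168 i)

/-- The subgroup given by the entries. -/
noncomputable def tblSub {S : Finset Ix168} (hS : IsTblSub S) : Subgroup G where
  carrier := {g | E.symm g ∈ S}
  one_mem' := by
    have : E (.inl (0, 0)) = 1 := hφ (by rw [hE, map_one]; simp [el168])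
    rw [Set.mem_ofPred_eq, ← this, Equiv.symm_apply_apply]; exact hS.1
  mul_mem' := fun {a b} ha hb => by
    obtain ⟨k, hk, e⟩ := hS.2 _ ha _ hb
    have : E k = a * b := hφ (by rw [hE, ← e, map_mul, ← hE, ← hE, E.apply_symm_apply, E.apply_symm_apply])
    rw [Set.mem_ofPred_eq, ← this, Equiv.symm_apply_apply]; exact hk
  inv_mem' := fun {a} ha => by
    rw [Set.mem_ofPred_eq, inv_eq_of_mul_eq_one_left (show a ^ (orderOf a - 1) * a = 1 by
      rw [← pow_succ, Nat.sub_add_cancel (orderOf_pos a), pow_orderOf_eq_one])]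
    induction (orderOf a - 1) with
    | zero =>
      have : E (.inl (0, 0)) = 1 := hφ (by rw [hE, map_one]; simp [el168])
      rw [pow_zero, ← this, Equiv.symm_apply_apply]; exact hS.1
    | succ n ih =>
      obtain ⟨k, hk, e⟩ := hS.2 _ ih _ ha
      have : E k = a ^ n * a := hφ (by
        rw [hE, ← e, map_mul, ← hE, ← hE, E.apply_symm_apply, E.apply_symm_apply])
      rw [pow_succ, ← this, Equiv.symm_apply_apply]; exact hk

lemma mem_tblSub {S : Finset Ix168} (hS : IsTblSub S) (i : Ix168) :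
    E i ∈ tblSub hφ hE hS ↔ i ∈ S := by
  change E.symm (E i) ∈ S ↔ i ∈ S
  rw [Equiv.symm_apply_apply]

lemma card_tblSub {S : Finset Ix168} (hS : IsTblSub S) :
    Nat.card (tblSub hφ hE hS) = S.card := by
  rw [← Nat.card_eq_finsetCard]
  exact Nat.card_congr ((E.subtypeEquiv fun i => (mem_tblSub hφ hE hS i).symm).symm)

lemma mem_normalizer_tblSub {S : Finset Ix168} (hS : IsTblSub S) (k : Ix168) :
    E k ∈ Subgroup.normalizer (tblSub hφ hE hS : Set G) ↔ k ∈ tblNorm S := by
  rw [tblNorm, Finset.mem_filter]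
  constructor
  · intro h
    refine ⟨Finset.mem_univ _, fun i hi => ?_⟩
    have hm := (Subgroup.mem_normalizer_iff.1 h (E i)).1 ((mem_tblSub hφ hE hS i).2 hi)
    obtain ⟨j, hj⟩ := E.surjective (E k * E i * (E k)⁻¹)
    refine ⟨j, (mem_tblSub hφ hE hS j).1 (hj ▸ hm), ?_⟩
    rw [← hE k, ← hE i, ← hE j, ← map_mul φ, ← map_mul φ, hj, inv_mul_cancel_right]
  · rintro ⟨-, h⟩
    have hle : (tblSub hφ hE hS).map (MulAut.conj (E k)).toMonoidHom ≤ tblSub hφ hE hS := by
      rintro _ ⟨x, hx, rfl⟩
      obtain ⟨i, rfl⟩ := E.surjective x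
      obtain ⟨j, hj, e⟩ := h i ((mem_tblSub hφ hE hS i).1 hx)
      rw [← hE k, ← hE i, ← hE j, ← map_mul φ, ← map_mul φ, hφ.eq_iff] at e
      change E k * E i * (E k)⁻¹ ∈ _
      rw [e, mul_inv_cancel_right]
      exact (mem_tblSub hφ hE hS j).2 hj
    have heq := Subgroup.eq_of_le_of_card_ge hle (le_of_eq (Nat.card_congr
      ((tblSub hφ hE hS).equivMapOfInjective _ (MulAut.conj (E k)).injective).toEquiv))
    refine Subgroup.mem_normalizer_iff.2 fun x => ⟨fun hx => hle ⟨x, hx, rfl⟩, fun hx => ?_⟩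
    rw [← heq] at hx
    obtain ⟨y, hy, e⟩ := hx
    obtain rfl : y = x := (MulAut.conj (E k)).injective e
    exact hy

lemma card_normalizer_tblSub {S : Finset Ix168} (hS : IsTblSub S) :
    Nat.card (Subgroup.normalizer (tblSub hφ hE hS : Set G)) = (tblNorm S).card := by
  rw [← Nat.card_eq_finsetCard]
  exact Nat.card_congr ((E.subtypeEquiv fun k => (mem_normalizer_tblSub hφ hE hS k).symm).symm)

/-- Sylow numbers from the table. -/
theorem count_sylow {p k m : ℕ} [Fact p.Prime] {S : Finset Ix168}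
    (hφ : Function.Injective φ) (hE : ∀ i, φ (E i) = el168 i) (hcard : Nat.card G = 168)
    (hm : 168 = p ^ k * m) (hmp : ¬ p ∣ m) (hS : IsTblSub S) (hSc : S.card = p ^ k)
    {c : ℕ} (hn : (tblNorm S).card * c = 168) : Nat.card (Sylow p G) = c := by
  classical
  let P : Sylow p G := Sylow.ofCard (tblSub hφ hE hS) (by
    rw [card_tblSub, hSc, hcard, hm]
    have hp : p.Prime := Fact.out
    have hm0 : m ≠ 0 := fun h0 => hmp (h0 ▸ dvd_zero p)
    rw [Nat.factorization_mul (pow_ne_zero _ hp.ne_zero) hm0,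
      Finsupp.add_apply, hp.factorization_pow, Finsupp.single_eq_same,
      Nat.factorization_eq_zero_of_not_dvd hmp, add_zero])
  have h := (Subgroup.normalizer ((P : Subgroup G) : Set G)).card_mul_index
  rw [← card_sylow_eq_index P, show ((P : Subgroup G)) = tblSub hφ hE hS from rfl,
    card_normalizer_tblSub, hcard, ← hn] at h
  exact Nat.eq_of_mul_eq_mul_left (by
    rcases Nat.eq_zero_or_pos (tblNorm S).card with e | e
    · rw [e, zero_mul] at hn; omega
    · exact e) h

/-- The dihedral group of order eight in the table. -/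
def dih168 : DihedralGroup 4 → Equiv.Perm Line7
  | .r i => el168 (.inr (0, 3, 0)) ^ i.val
  | .sr i => el168 (.inr (5, 2, 0)) * el168 (.inr (0, 3, 0)) ^ i.val

/-- Its entries. -/
def gens2 : Finset Ix168 := Finset.univ.filter fun i => ∃ d, el168 i = dih168 d

/-- The entries of a subgroup of order three. -/
def gens3 : Finset Ix168 := {.inl (0, 0), .inl (0, 1), .inl (0, 2)}

end Cfsg.Agent.Lib.SmallSimple
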